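import Cfsg.Agent.Lib.SolvStruct.Frat2
import Mathlib.FieldTheory.Finite.Basic
import Mathlib.GroupTheory.Abelianization.Defs

/-!
Steinberg's two-generation trick, abstractly: a subgroup of a finite nilpotent group that is invariant under
an endomorphism `f` and contains an element which, modulo the derived subgroup, generates everything under `f`,
is the whole group.
-/

set_option autoImplicit false

namespace Cfsg.Agent.Lib.TwoGenTw.Core

open Subgroup

/-- A subgroup of a finite nilpotent group supplementing the derived subgroup is everything. -/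
theorem eq_top_of_sup_commutator {P : Type*} [Group P] [Finite P] [Group.IsNilpotent P] (M : Subgroup P)
    (h : ⊤ ≤ M ⊔ commutator P) : M = ⊤ := by
  by_contra hne
  obtain ⟨A, hA, hMA⟩ : ∃ A : Subgroup P, IsCoatom A ∧ M ≤ A := by
    rcases eq_top_or_exists_le_coatom M with h0 | h0
    · exact absurd h0 hne
    · exact h0
  haveI : A.Normal := (Group.normalizerCondition_of_isNilpotent (G := P)).normal_of_coatom A hA
  have h1 := Cfsg.Agent.Lib.SolvStruct.Frat2.commutator_le_of_coatom_normal A hA
  exact hA.1 (top_le_iff.mp (h.trans (sup_le hMA h1)))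

/-- The abstract core. -/
theorem core {P A : Type*} [Group P] [Finite P] [Group.IsNilpotent P] [AddCommGroup A]
    (z : A → P)
    (hadd : ∀ a b, Abelianization.of (z (a + b)) = Abelianization.of (z a) * Abelianization.of (z b))
    (hgen : closure (Set.range z) = ⊤) (f : P →* P) (L : A →+ A)
    (hf : ∀ a, Abelianization.of (f (z a)) = Abelianization.of (z (L a)))
    (M : Subgroup P) (hM : ∀ m ∈ M, f m ∈ M) (a₀ : A) (c : P) (hc : c ∈ M)
    (hc0 : Abelianization.of c = Abelianization.of (z a₀))
    (hS : ∀ S : AddSubgroup A, a₀ ∈ S → (∀ a ∈ S, L a ∈ S) → S = ⊤) : M = ⊤ := by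
  set π : P →* Abelianization P := Abelianization.of with hπ
  set R : Subgroup (Abelianization P) := M.map π with hR
  have hz0 : π (z 0) = 1 := by
    have := hadd 0 0
    rw [add_zero] at this
    exact mul_eq_left.mp this.symm
  let S : AddSubgroup A :=
    { carrier := {a | π (z a) ∈ R}
      zero_mem' := by
        show π (z 0) ∈ R
        rw [hz0]
        exact R.one_mem
      add_mem' := by
        intro a b ha hb
        show π (z (a + b)) ∈ R
        rw [hadd]
        exact R.mul_mem ha hb
      neg_mem' := by
        intro a ha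
        show π (z (-a)) ∈ R
        have h1 := hadd a (-a)
        rw [add_neg_cancel, hz0] at h1
        have h2 : π (z (-a)) = (π (z a))⁻¹ := (inv_eq_of_mul_eq_one_right h1.symm).symm
        rw [h2]
        exact R.inv_mem ha }
  have hS0 : S = ⊤ := by
    apply hS
    · show π (z a₀) ∈ R
      rw [← hc0]
      exact ⟨c, hc, rfl⟩
    · intro a ha
      obtain ⟨m, hm, hme⟩ := ha
      show π (z (L a)) ∈ R
      rw [← hf]
      have e : π (f (z a)) = Abelianization.map f (π (z a)) := (Abelianization.map_of f (z a)).symm
      rw [e, ← hme]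
      have e2 : Abelianization.map f (π m) = π (f m) := Abelianization.map_of f m
      rw [e2]
      exact ⟨f m, hM m hm, rfl⟩
  apply eq_top_of_sup_commutator
  rw [← hgen, closure_le]
  rintro _ ⟨a, rfl⟩
  have ha : a ∈ S := by rw [hS0]; trivial
  obtain ⟨m, hm, hme⟩ := ha
  have h1 : z a = m * (m⁻¹ * z a) := by group
  rw [h1]
  refine mul_mem_sup hm ?_
  have h2 : m⁻¹ * z a ∈ π.ker := by
    rw [MonoidHom.mem_ker, map_mul, map_inv, ← hme]
    simp
  rw [Abelianization.ker_of] at h2
  exact h2

/-- A subset of a subgroup, whose image generates the subgroup, generates it. -/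
theorem closure_subtype_top {Γ : Type*} [Group Γ] (U : Subgroup Γ) (S : Set ↥U)
    (h : U ≤ closure (U.subtype '' S)) : closure S = ⊤ := by
  rw [eq_top_iff]
  rintro x -
  have h1 := h x.2
  rw [← MonoidHom.map_closure] at h1
  obtain ⟨y, hy, hyx⟩ := h1
  have : y = x := Subtype.ext hyx
  rwa [← this]

/-- Every element of a finite field is a sum of two squares. -/
theorem exists_sq_add_sq {K : Type*} [Field K] [Fintype K] (x : K) : ∃ r s : K, r ^ 2 + s ^ 2 = x := by
  classical
  by_cases h2 : ringChar K = 2
  · obtain ⟨r, hr⟩ := FiniteField.isSquare_of_char_two h2 x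
    exact ⟨r, 0, by rw [hr]; ring⟩
  · have hodd : Fintype.card K % 2 = 1 := FiniteField.odd_card_of_char_ne_two h2
    obtain ⟨a, b, hab⟩ := FiniteField.exists_root_sum_quadratic (R := K)
      (f := Polynomial.X ^ 2) (g := Polynomial.X ^ 2 - Polynomial.C x)
      (Polynomial.degree_X_pow 2) (Polynomial.degree_X_pow_sub_C (by decide) _) hodd
    refine ⟨a, b, ?_⟩
    simp only [Polynomial.eval_pow, Polynomial.eval_X, Polynomial.eval_sub, Polynomial.eval_C] at hab
    linear_combination hab

end Cfsg.Agent.Lib.TwoGenTw.Core
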