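import Cfsg.Agent.Lib.TwoGenTw.Core
import Cfsg.Agent.Lib.Twisted.D4
import Cfsg.Agent.Lib.Twisted.D4H
import Cfsg.Agent.Lib.Lie.AxOf

/-! # ³D₄(q) is generated by two elements -/

set_option autoImplicit false
set_option linter.unusedSectionVars false
set_option linter.unusedVariables false
set_option linter.ambiguousOpen false

namespace Cfsg.Agent.Lib.TwoGenTw.D4

open scoped MatrixGroups Matrix
open Cfsg Lie ChevalleyDatum
open Cfsg.Agent.Lib.Chev
open Tables Tables2 Tables3 Raise Basic AxBasic Torus Products Products2 Mono1 Mono2 Mono3 Bn Diag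
open Cfsg.Agent.Lib.Twisted.Fact Cfsg.Agent.Lib.Twisted.Bruhat Cfsg.Agent.Lib.Twisted.Tw
open Cfsg.Agent.Lib.Twisted.Struct Cfsg.Agent.Lib.Twisted.Check Cfsg.Agent.Lib.Twisted.Ortho
open Cfsg.Agent.Lib.Twisted.TorusFix Cfsg.Agent.Lib.Twisted.D4
open Cfsg.Agent.Lib.TwoGenTw.Core

variable {K : Type*} [Field K] (ax : Ax chevD4 K) (φ : K ≃+* K)

/-- The root element of the class of `p₁, p₃, p₄`. -/
noncomputable def X (t : K) : GL chevD4.Idx K := xG ax 18 t * xG ax 13 (φ t) * xG ax 12 (φ (φ t))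

/-- The root element of the class of `-p₁, -p₃, -p₄`. -/
noncomputable def Xm (t : K) : GL chevD4.Idx K := xG ax 5 t * xG ax 10 (φ t) * xG ax 11 (φ (φ t))

lemma X_add (a b : K) : X ax φ (a + b) = X ax φ a * X ax φ b := by
  simp only [X, map_add]
  rw [three_mul]
  · rw [xG_add, xG_add, xG_add]
  · exact (show CommPair chevD4 13 18 by decide +kernel).comm ax _ _
  · exact (show CommPair chevD4 12 18 by decide +kernel).comm ax _ _
  · exact (show CommPair chevD4 12 13 by decide +kernel).comm ax _ _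

lemma X_zero : X ax φ 0 = 1 := by simp [X]

/-- The main torus element. -/
noncomputable def vecc (g : Kˣ) : ℕ → Kˣ :=
  Cfsg.Agent.Lib.Twisted.D4H.vec4 g 1 (Cfsg.Agent.Lib.Twisted.D4H.φu φ g)
    (Cfsg.Agent.Lib.Twisted.D4H.φu φ (Cfsg.Agent.Lib.Twisted.D4H.φu φ g))

/-- The element `h`. -/
noncomputable def hh (g : Kˣ) : GL chevD4.Idx K := tor chevD4 (psi chevD4 (vecc φ g))

/-- The norm. -/
noncomputable def Nr (g : Kˣ) : Kˣ :=
  g * Cfsg.Agent.Lib.Twisted.D4H.φu φ g * Cfsg.Agent.Lib.Twisted.D4H.φu φ (Cfsg.Agent.Lib.Twisted.D4H.φu φ g)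

lemma psi_vals (g : Kˣ) :
    psi chevD4 (vecc φ g) 0 = g ^ 2 ∧ psi chevD4 (vecc φ g) 1 = (Nr φ g)⁻¹ ∧
    psi chevD4 (vecc φ g) 2 = (Cfsg.Agent.Lib.Twisted.D4H.φu φ g) ^ 2 ∧
    psi chevD4 (vecc φ g) 3 = (Cfsg.Agent.Lib.Twisted.D4H.φu φ (Cfsg.Agent.Lib.Twisted.D4H.φu φ g)) ^ 2 := by
  obtain ⟨h0, h1, h2, h3⟩ := Cfsg.Agent.Lib.Twisted.D4H.psi_D4 (vecc φ g)
  refine ⟨?_, ?_, ?_, ?_⟩
  · rw [h0]; simp [vecc, Cfsg.Agent.Lib.Twisted.D4H.vec4]
  · rw [h1]; simp [vecc, Cfsg.Agent.Lib.Twisted.D4H.vec4, Nr, mul_assoc, mul_comm, mul_left_comm]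
  · rw [h2]; simp [vecc, Cfsg.Agent.Lib.Twisted.D4H.vec4]
  · rw [h3]; simp [vecc, Cfsg.Agent.Lib.Twisted.D4H.vec4]

lemma simple_vals : chevD4.simple 0 = 18 ∧ chevD4.simple 1 = 14 ∧ chevD4.simple 2 = 13 ∧ chevD4.simple 3 = 12 := by
  decide +kernel

lemma hD_eq : (Cfsg.Agent.Lib.Twisted.D4.hD : Tab chevD4) = Cfsg.Agent.Lib.Twisted.D4H.hD := rfl

lemma chi_18 (y : ℕ → Kˣ) : chi chevD4 y 18 = y 0 := by
  have := chi_simple (F := K) hD y (j := 0) (by decide)
  rwa [simple_vals.1] at this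

lemma chi_14 (y : ℕ → Kˣ) : chi chevD4 y 14 = y 1 := by
  have := chi_simple (F := K) hD y (j := 1) (by decide)
  rwa [simple_vals.2.1] at this

lemma chi_13 (y : ℕ → Kˣ) : chi chevD4 y 13 = y 2 := by
  have := chi_simple (F := K) hD y (j := 2) (by decide)
  rwa [simple_vals.2.2.1] at this

lemma chi_12 (y : ℕ → Kˣ) : chi chevD4 y 12 = y 3 := by
  have := chi_simple (F := K) hD y (j := 3) (by decide)
  rwa [simple_vals.2.2.2] at this

/-- The action of `h` on the class of `p₁`. -/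
lemma hh_conj_X (g : Kˣ) (t : K) :
    hh φ g * X ax φ t * (hh φ g)⁻¹ = X ax φ ((g : K) ^ 2 * t) := by
  obtain ⟨h0, h1, h2, h3⟩ := psi_vals φ g
  have e : hh φ g * X ax φ t * (hh φ g)⁻¹ =
      (hh φ g * xG ax 18 t * (hh φ g)⁻¹) * (hh φ g * xG ax 13 (φ t) * (hh φ g)⁻¹) *
        (hh φ g * xG ax 12 (φ (φ t)) * (hh φ g)⁻¹) := by
    simp only [X]; group
  rw [e]
  simp only [hh]
  rw [tor_conj_xG ax hD _ (by decide), tor_conj_xG ax hD _ (by decide), tor_conj_xG ax hD _ (by decide),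
    chi_18, chi_13, chi_12, h0, h2, h3]
  simp [X, Cfsg.Agent.Lib.Twisted.D4H.φu_coe, map_mul, map_pow]

/-- The action of `h` on the class of `p₂`. -/
lemma hh_conj_Y (g : Kˣ) (t : K) :
    hh φ g * xG ax 14 t * (hh φ g)⁻¹ = xG ax 14 (((Nr φ g)⁻¹ : Kˣ) * t) := by
  obtain ⟨h0, h1, h2, h3⟩ := psi_vals φ g
  simp only [hh]
  rw [tor_conj_xG ax hD _ (by decide), chi_14, h1]

include ax in
lemma hh_mem_diag (g : Kˣ) : hh φ g ∈ chevD4.diagonalSubgroup K := by
  simp only [hh]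
  rw [tor_psi_list hD ax]
  refine Subgroup.list_prod_mem _ ?_
  intro a ha
  obtain ⟨i, hi, rfl⟩ := List.mem_map.mp ha
  exact hG_mem_diagonal ax (hD.simple_lt i (List.mem_range.mp hi)) (Units.ne_zero _)

/-! ### The element `n₀` -/

lemma wWord_neg : ∀ r : Fin chevD4.nroots, wWord chevD4 (Cd.flat Cd.L₀) r = chevD4.neg r := by
  decide +kernel

lemma fl_lt : ∀ i ∈ Cd.flat Cd.L₀, i < chevD4.rank := by decide +kernel

section N0

variable {n : GL chevD4.Idx K} {c : Fin chevD4.nroots → Kˣ}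

/-- `n` acting as `-1` on the roots inverts the diagonal subgroup. -/
lemma inverts (H : IsNor hD ax n (wPw hD (Cd.flat Cd.L₀)) c) (y : ℕ → Kˣ)
    (hy : tor chevD4 y ∈ chevD4.diagonalSubgroup K) :
    n * tor chevD4 y * n⁻¹ = (tor chevD4 y)⁻¹ := by
  have hd : n * tor chevD4 y * n⁻¹ ∈ chevD4.diagonalSubgroup K := H.conj_mem_H hD ax hy
  obtain ⟨y', hy'⟩ := exists_tor_of_mem ax hD hd
  rw [tor_inv, hy']
  apply tor_eq_of_chi
  intro s hs
  have H1 := (H.mul hD ax (isNor_tor hD ax y)).mul hD ax (H.inv hD ax)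
  have H2 : IsNor hD ax (n * tor chevD4 y * n⁻¹) _ _ := H1
  rw [hy'] at H2
  have H3 := (IsNor.unique hD ax hD2 H2 (isNor_tor hD ax y')).2
  have h4 := congrFun H3 ⟨s, hs⟩
  simp only at h4
  rw [← h4, chi_inv]
  have hneg : (wPw hD (Cd.flat Cd.L₀))⁻¹ ⟨s, hs⟩ = negF hD ⟨s, hs⟩ := by
    rw [Equiv.Perm.inv_eq_iff_eq]
    apply Fin.ext
    rw [wPw_val hD fl_lt, wWord_neg]
    simp only [negF]
    have := hD.neg_neg s hs
    exact this.symm
  simp only [Equiv.Perm.one_apply, hneg]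
  have e : ((negF hD ⟨s, hs⟩ : Fin chevD4.nroots) : ℕ) = chevD4.neg s := rfl
  rw [e, chi_neg hD y hs]
  rw [mul_comm (c _), mul_assoc, mul_inv_cancel, mul_one]

end N0

section Sign

variable {q : ℕ} (hφ : ∀ t, φ t = t ^ q) (hφ3 : ∀ t, φ (φ (φ t)) = t)

/-- The scalars of an element fixed by the twist are compatible with the twist. -/
lemma sign_rel {n : GL chevD4.Idx K} (hn : n ∈ (twD φ ax).Fx) {π : Equiv.Perm (Fin chevD4.nroots)}
    {c : Fin chevD4.nroots → Kˣ} (H : IsNor hD ax n π c) {r r' m m' : ℕ} (hr : r < chevD4.nroots)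
    (hr' : r' < chevD4.nroots) (hm : m < chevD4.nroots) (hm' : m' < chevD4.nroots)
    (hρ : Sd.ρ r = r') (hγ : Sd.γ r = 1) (hρ2 : Sd.ρ m = m') (hγ2 : Sd.γ m = 1)
    (hπ : π ⟨r, hr⟩ = ⟨m, hm⟩) (hπ' : π ⟨r', hr'⟩ = ⟨m', hm'⟩) :
    ((c ⟨r', hr'⟩ : Kˣ) : K) = φ (c ⟨r, hr⟩ : Kˣ) := by
  have e1 := H.conj ⟨r, hr⟩ 1
  rw [hπ, mul_one] at e1
  simp only at e1
  have e3 := H.conj ⟨r', hr'⟩ 1
  rw [hπ', mul_one] at e3
  simp only at e3
  have hx := xG_mem_group ax hr (1 : K)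
  have e2 : (twD φ ax).s (n * xG ax r 1 * n⁻¹) = n * xG ax r' 1 * n⁻¹ := by
    rw [(twD φ ax).s_mul _ (Subgroup.mul_mem _ hn.1 hx) _ (Subgroup.inv_mem _ hn.1), (twD φ ax).s_mul _ hn.1 _ hx,
      (twD φ ax).s_inv hn.1, hn.2, s_xD φ ax hr hρ hγ, map_one]
  rw [e1, s_xD φ ax hm hρ2 hγ2, e3] at e2
  exact (xG_inj hD hD2 ax hm' e2).symm

/-- Conjugation by an element fixed by the twist and acting as `-1`. -/
theorem n0_conj {n : GL chevD4.Idx K} (hn : n ∈ (twD φ ax).Fx) {c : Fin chevD4.nroots → Kˣ}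
    (H : IsNor hD ax n (wPw hD (Cd.flat Cd.L₀)) c) :
    ∃ κ κ' : Kˣ, φ (κ' : K) = κ' ∧ (∀ t, n * X ax φ t * n⁻¹ = Xm ax φ ((κ : K) * t)) ∧
      ∀ t, n * xG ax 14 t * n⁻¹ = xG ax 9 ((κ' : K) * t) := by
  have hπ : ∀ (r m : ℕ) (hr : r < chevD4.nroots) (hm : m < chevD4.nroots), chevD4.neg r = m →
      (wPw hD (Cd.flat Cd.L₀)) ⟨r, hr⟩ = ⟨m, hm⟩ := by
    intro r m hr hm e
    apply Fin.ext
    rw [wPw_val hD fl_lt]
    simp only
    rw [wWord_neg ⟨r, hr⟩]
    exact e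
  have p18 := hπ 18 5 (by decide) (by decide) (by decide +kernel)
  have p13 := hπ 13 10 (by decide) (by decide) (by decide +kernel)
  have p12 := hπ 12 11 (by decide) (by decide) (by decide +kernel)
  have p14 := hπ 14 9 (by decide) (by decide) (by decide +kernel)
  have s13 := sign_rel ax φ hn H (r := 18) (r' := 13) (m := 5) (m' := 10) (by decide) (by decide) (by decide) (by decide)
    (by decide +kernel) (by decide +kernel) (by decide +kernel) (by decide +kernel) p18 p13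
  have s12 := sign_rel ax φ hn H (r := 13) (r' := 12) (m := 10) (m' := 11) (by decide) (by decide) (by decide) (by decide)
    (by decide +kernel) (by decide +kernel) (by decide +kernel) (by decide +kernel) p13 p12
  have s14 := sign_rel ax φ hn H (r := 14) (r' := 14) (m := 9) (m' := 9) (by decide) (by decide) (by decide) (by decide)
    (by decide +kernel) (by decide +kernel) (by decide +kernel) (by decide +kernel) p14 p14
  refine ⟨c ⟨18, by decide⟩, c ⟨14, by decide⟩, s14.symm, ?_, ?_⟩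
  · intro t
    have e : n * X ax φ t * n⁻¹ = (n * xG ax 18 t * n⁻¹) * (n * xG ax 13 (φ t) * n⁻¹) * (n * xG ax 12 (φ (φ t)) * n⁻¹) := by
      simp only [X]; group
    have c1 := H.conj ⟨18, by decide⟩ t
    have c2 := H.conj ⟨13, by decide⟩ (φ t)
    have c3 := H.conj ⟨12, by decide⟩ (φ (φ t))
    rw [p18] at c1
    rw [p13] at c2
    rw [p12] at c3
    simp only at c1 c2 c3
    rw [e, c1, c2, c3, s12, s13]
    simp [Xm, map_mul]
  · intro t
    have c1 := H.conj ⟨14, by decide⟩ t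
    rw [p14] at c1
    exact c1

end Sign

/-- The fixed points of the twist on `K`. -/
def Bq : AddSubgroup K where
  carrier := {s | φ s = s}
  zero_mem' := map_zero φ
  add_mem' := by
    intro a b ha hb
    show φ (a + b) = a + b
    rw [map_add, ha, hb]
  neg_mem' := by
    intro a ha
    show φ (-a) = -a
    rw [map_neg, ha]

/-- Multiplication by `(l, m)`. -/
def Lm (l m : K) (hm : φ m = m) : K × (Bq φ) →+ K × (Bq φ) where
  toFun p := (l * p.1, ⟨m * p.2, by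
    show φ (m * p.2) = m * p.2
    rw [map_mul, hm, p.2.2]⟩)
  map_zero' := by
    apply Prod.ext
    · simp
    · apply Subtype.ext; simp
  map_add' := by
    intro a b
    apply Prod.ext
    · simp [mul_add]
    · apply Subtype.ext; simp [mul_add]

section AddGen

variable [Fintype K] {q : ℕ}

/-- The additive generation statement. -/
theorem add_gen {l m : K} (hm : φ m = m) (hm1 : m ≠ 1) (hmq : m ^ (q - 1) = 1) (hlq : l ^ (q - 1) ≠ 1)
    (hsq : ∀ r : K, r ≠ 0 → ∃ i : ℕ, r ^ 2 = l ^ i) (hB : ∀ s : K, φ s = s → s ≠ 0 → ∃ i : ℕ, s = m ^ i)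
    (S : AddSubgroup (K × Bq φ)) (h0 : ((l - 1, ⟨m - 1, by
      show φ (m - 1) = m - 1
      rw [map_sub, hm, map_one]⟩) : K × Bq φ) ∈ S)
    (hL : ∀ p ∈ S, Lm φ l m hm p ∈ S) : S = ⊤ := by
  have hit : ∀ (k : ℕ) (x y : K) (hy : φ y = y), ((x, ⟨y, hy⟩) : K × Bq φ) ∈ S →
      ∃ hy' : φ (m ^ k * y) = m ^ k * y, ((l ^ k * x, ⟨m ^ k * y, hy'⟩) : K × Bq φ) ∈ S := by
    intro k
    induction k with
    | zero =>
      intro x y hy hp
      simp only [pow_zero, one_mul]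
      exact ⟨hy, hp⟩
    | succ k ih =>
      intro x y hy hp
      obtain ⟨hy', hp'⟩ := ih x y hy hp
      have h1 := hL _ hp'
      have e1 : m ^ (k + 1) * y = m * (m ^ k * y) := by ring
      have e2 : l ^ (k + 1) * x = l * (l ^ k * x) := by ring
      have hy2 : φ (m ^ (k + 1) * y) = m ^ (k + 1) * y := by
        rw [e1, map_mul, hm, hy']
      refine ⟨hy2, ?_⟩
      convert h1 using 1
      apply Prod.ext
      · exact e2
      · apply Subtype.ext
        exact e1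
  have hm1' : φ (m - 1) = m - 1 := by rw [map_sub, hm, map_one]
  set w : K := m - 1 with hw
  have hw0 : w ≠ 0 := sub_ne_zero.mpr hm1
  set v : K := l - 1 with hv
  have hl1 : l ≠ 1 := by
    rintro rfl
    exact hlq (one_pow _)
  have hv0 : v ≠ 0 := sub_ne_zero.mpr hl1
  set e : K := (l ^ (q - 1) - 1) * v with he
  have he0 : e ≠ 0 := mul_ne_zero (sub_ne_zero.mpr hlq) hv0
  have hzero : ∀ y : Bq φ, (0 : K × Bq φ) = ((0, 0) : K × Bq φ) := fun _ => rfl
  have h1 : ((e, 0) : K × Bq φ) ∈ S := by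
    obtain ⟨hy', hp'⟩ := hit (q - 1) v w hm1' h0
    have := S.sub_mem hp' h0
    convert this using 1
    apply Prod.ext
    · simp [he]; ring
    · apply Subtype.ext
      simp [hmq, hw]
  have h2 : ∀ i : ℕ, ((l ^ i * e, 0) : K × Bq φ) ∈ S := by
    intro i
    obtain ⟨hy', hp'⟩ := hit i e 0 (map_zero φ) h1
    convert hp' using 1
    apply Prod.ext
    · rfl
    · apply Subtype.ext
      simp
  have h3 : ∀ r : K, ((r ^ 2 * e, 0) : K × Bq φ) ∈ S := by
    intro r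
    by_cases hr : r = 0
    · subst hr
      have : ((0 ^ 2 * e, 0) : K × Bq φ) = 0 := by
        apply Prod.ext
        · simp
        · rfl
      rw [this]
      exact S.zero_mem
    · obtain ⟨i, hi⟩ := hsq r hr
      rw [hi]
      exact h2 i
  have h4 : ∀ x : K, ((x, 0) : K × Bq φ) ∈ S := by
    intro x
    obtain ⟨r, s, hrs⟩ := exists_sq_add_sq (x / e)
    have := S.add_mem (h3 r) (h3 s)
    convert this using 1
    apply Prod.ext
    · show x = r ^ 2 * e + s ^ 2 * e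
      rw [← add_mul, hrs]
      field_simp
    · show (0 : Bq φ) = 0 + 0
      simp
  have h5 : ((0, ⟨w, hm1'⟩) : K × Bq φ) ∈ S := by
    have := S.sub_mem h0 (h4 v)
    convert this using 1
    apply Prod.ext
    · simp
    · apply Subtype.ext
      simp [hw]
  have h6 : ∀ y : Bq φ, ((0, y) : K × Bq φ) ∈ S := by
    rintro ⟨y, hy⟩
    by_cases hy0 : y = 0
    · subst hy0
      exact S.zero_mem
    · have hy1 : φ (y / w) = y / w := by
        rw [map_div₀, hy, hm1']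
      obtain ⟨i, hi⟩ := hB (y / w) hy1 (div_ne_zero hy0 hw0)
      obtain ⟨hy', hp'⟩ := hit i 0 w hm1' h5
      convert hp' using 1
      apply Prod.ext
      · simp
      · apply Subtype.ext
        show y = m ^ i * w
        rw [← hi]
        field_simp
  rw [eq_top_iff]
  rintro ⟨x, y⟩ -
  have := S.add_mem (h4 x) (h6 y)
  convert this using 1
  apply Prod.ext
  · simp
  · apply Subtype.ext
    simp

end AddGen

section Main

variable [Fintype K] {q : ℕ} (hφ : ∀ t, φ t = t ^ q) (hφ3 : ∀ t, φ (φ (φ t)) = t)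

include hφ hφ3

lemma X_mem (t : K) : X ax φ t ∈ twistedD4 K q := by
  have := mem_triple ax (q := q) (rs := (18, 13, 12)) (by decide) t
  simp only at this
  rwa [pow_qq φ hφ hφ3, ← hφ] at this

lemma Y_mem {s : K} (hs : φ s = s) : xG ax 14 s ∈ twistedD4 K q :=
  mem_single ax (r := 14) (by decide) (by rw [← hφ, hs])

/-- Enough elements generate. -/
theorem le_of_contains (C : Subgroup (GL chevD4.Idx K)) {n : GL chevD4.Idx K} (hnC : n ∈ C) (κ κ' : Kˣ)
    (hκ' : φ (κ' : K) = κ') (h1 : ∀ t, n * X ax φ t * n⁻¹ = Xm ax φ ((κ : K) * t))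
    (h2 : ∀ t, n * xG ax 14 t * n⁻¹ = xG ax 9 ((κ' : K) * t)) (hX : ∀ t, X ax φ t ∈ C)
    (hY : ∀ s, φ s = s → xG ax 14 s ∈ C) : twistedD4 K q ≤ C := by
  rw [twistedD4, genSubgroup, Subgroup.closure_le]
  rintro g ⟨w, hw, hg⟩
  rcases hw with ⟨t, ht, r, hr, rfl⟩ | ⟨t, rs, hrs, rfl⟩
  · have e : g = xG ax r t := Units.ext (by rw [hg, xG_val, word_single])
    have ht' : φ t = t := by rw [hφ, ht]
    rw [e]
    simp only [List.mem_cons, List.not_mem_nil, or_false] at hr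
    rcases hr with rfl | rfl
    · exact hY t ht'
    · have e2 : xG ax d4m2 t = n * xG ax 14 (((κ' : K))⁻¹ * t) * n⁻¹ := by
        rw [h2]
        have : (κ' : K) * ((κ' : K)⁻¹ * t) = t := by
          have := κ'.ne_zero
          field_simp
        rw [this]
        rfl
      rw [e2]
      refine C.mul_mem (C.mul_mem hnC (hY _ ?_)) (C.inv_mem hnC)
      rw [map_mul, map_inv₀, hκ', ht']
  · have e : g = xG ax rs.1 t * xG ax rs.2.1 (t ^ q) * xG ax rs.2.2 (t ^ (q ^ 2)) :=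
      Units.ext (by rw [hg, word_triple]; simp)
    rw [e, pow_qq φ hφ hφ3, ← hφ]
    simp only [List.mem_cons, List.not_mem_nil, or_false] at hrs
    rcases hrs with rfl | rfl
    · exact hX t
    · have e2 : xG ax d4m1 t * xG ax d4m3 (φ t) * xG ax d4m4 (φ (φ t)) = n * X ax φ (((κ : K))⁻¹ * t) * n⁻¹ := by
        rw [h1]
        have : (κ : K) * ((κ : K)⁻¹ * t) = t := by
          have := κ.ne_zero
          field_simp
        rw [this]
        rfl
      simp only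
      rw [e2]
      exact C.mul_mem (C.mul_mem hnC (hX _)) (C.inv_mem hnC)

include ax in
/-- The case of the additive generation. -/
theorem case_ge3 (g : Kˣ) (hm : φ (((Nr φ g)⁻¹ : Kˣ) : K) = ((Nr φ g)⁻¹ : Kˣ))
    (hS : ∀ S : AddSubgroup (K × Bq φ), ((((g : K) ^ 2 - 1, ⟨((Nr φ g)⁻¹ : Kˣ) - 1, by
      show φ (((Nr φ g)⁻¹ : Kˣ) - 1 : K) = _
      rw [map_sub, hm, map_one]⟩) : K × Bq φ) ∈ S) →
      (∀ p ∈ S, Lm φ ((g : K) ^ 2) ((Nr φ g)⁻¹ : Kˣ) hm p ∈ S) → S = ⊤) :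
    ∃ a ∈ twistedD4 K q, ∃ b ∈ twistedD4 K q, twistedD4 K q ≤ Subgroup.closure {a, b} := by
  classical
  set l : K := (g : K) ^ 2 with hl
  set m : K := (((Nr φ g)⁻¹ : Kˣ) : K) with hmdef
  set T := TD4 (q := q) φ hφ hφ3 ax with hT
  obtain ⟨c, H⟩ := T.n₀_nor
  have H' : IsNor hD ax T.n₀ (wPw hD (Cd.flat Cd.L₀)) c := H
  have hnF := T.G1_le T.n₀_mem
  obtain ⟨κ, κ', hκ', hc1, hc2⟩ := n0_conj ax φ hnF H'
  set n := T.n₀ with hn
  set h := hh φ g with hh'
  have hinv : n * h * n⁻¹ = h⁻¹ := inverts ax H' _ (hh_mem_diag ax φ g)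
  have hG : h ∈ twistedD4 K q := by
    apply Cfsg.Agent.Lib.Twisted.D4H.mem_G1 ax φ hφ hφ3
    · rfl
    · rfl
    · show Cfsg.Agent.Lib.Twisted.D4H.φu φ 1 = 1
      exact map_one _
  set u := X ax φ 1 * xG ax 14 1 with hu
  have hY1 : φ (1 : K) = 1 := map_one φ
  have huG : u ∈ twistedD4 K q := Subgroup.mul_mem _ (X_mem ax φ hφ hφ3 1) (Y_mem ax φ hφ hφ3 hY1)
  set b := u * n with hb
  have hbG : b ∈ twistedD4 K q := Subgroup.mul_mem _ huG T.n₀_mem
  set C := Subgroup.closure ({h, b} : Set (GL chevD4.Idx K)) with hC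
  have hhC : h ∈ C := Subgroup.subset_closure (by simp)
  have hbC : b ∈ C := Subgroup.subset_closure (by simp)
  -- the unipotent group
  set U₁ : Subgroup (GL chevD4.Idx K) :=
    Subgroup.closure (Set.range (X ax φ) ∪ {x | ∃ s, φ s = s ∧ x = xG ax 14 s}) with hU₁
  have hXU : ∀ t, X ax φ t ∈ U₁ := fun t => Subgroup.subset_closure (Or.inl ⟨t, rfl⟩)
  have hYU : ∀ s, φ s = s → xG ax 14 s ∈ U₁ := fun s hs => Subgroup.subset_closure (Or.inr ⟨s, hs, rfl⟩)
  have hU₁le : ∀ D : Subgroup (GL chevD4.Idx K), (∀ t, X ax φ t ∈ D) → (∀ s, φ s = s → xG ax 14 s ∈ D) → U₁ ≤ D := by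
    intro D h1 h2
    rw [hU₁, Subgroup.closure_le]
    rintro x (⟨t, rfl⟩ | ⟨s, hs, rfl⟩)
    · exact h1 t
    · exact h2 s hs
  have hU₁U : U₁ ≤ chevD4.posUnipotent K := by
    apply hU₁le
    · intro t
      exact Subgroup.mul_mem _ (Subgroup.mul_mem _ (xG_mem_U ax (by decide +kernel) t) (xG_mem_U ax (by decide +kernel) _))
        (xG_mem_U ax (by decide +kernel) _)
    · intro s _
      exact xG_mem_U ax (by decide +kernel) s
  haveI hnil : Group.IsNilpotent ↥U₁ := isNilpotent_of_le_raising _ U₁ (hU₁U.trans (Unipotent.posUnipotent_le_raising hD))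
  -- conjugation by h
  have hconjX : ∀ t, h * X ax φ t * h⁻¹ = X ax φ (l * t) := hh_conj_X ax φ g
  have hconjY : ∀ t, h * xG ax 14 t * h⁻¹ = xG ax 14 (m * t) := hh_conj_Y ax φ g
  have hconjU : ∀ x ∈ U₁, h * x * h⁻¹ ∈ U₁ := by
    have hle : U₁ ≤ U₁.comap (MulAut.conj h).toMonoidHom := by
      apply hU₁le
      · intro t
        show h * X ax φ t * h⁻¹ ∈ U₁
        rw [hconjX]
        exact hXU _
      · intro s hs
        show h * xG ax 14 s * h⁻¹ ∈ U₁
        rw [hconjY]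
        refine hYU _ ?_
        rw [map_mul, hm, hs]
    intro x hx
    exact hle hx
  let f : ↥U₁ →* ↥U₁ :=
    { toFun := fun x => ⟨h * x * h⁻¹, hconjU x x.2⟩
      map_one' := by apply Subtype.ext; simp
      map_mul' := by
        intro x y
        apply Subtype.ext
        show h * ((x : GL chevD4.Idx K) * y) * h⁻¹ = (h * x * h⁻¹) * (h * y * h⁻¹)
        group }
  let X' : K → ↥U₁ := fun t => ⟨X ax φ t, hXU t⟩
  let Y' : Bq φ → ↥U₁ := fun s => ⟨xG ax 14 s, hYU s s.2⟩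
  have hX'add : ∀ a b, X' (a + b) = X' a * X' b := fun a b => Subtype.ext (X_add ax φ a b)
  have hY'add : ∀ a b, Y' (a + b) = Y' a * Y' b := fun a b => Subtype.ext (xG_add ax 14 _ _).symm
  let z : K × Bq φ → ↥U₁ := fun p => X' p.1 * Y' p.2
  set M : Subgroup ↥U₁ := C.subgroupOf U₁ with hM
  have hM_top : M = ⊤ := by
    have hm1' : φ (m - 1) = m - 1 := by rw [map_sub, hm, map_one]
    have hc0G : h * u * h⁻¹ * u⁻¹ ∈ U₁ :=
      U₁.mul_mem (hconjU u (U₁.mul_mem (hXU 1) (hYU 1 hY1))) (U₁.inv_mem (U₁.mul_mem (hXU 1) (hYU 1 hY1)))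
    refine Core.core z ?_ ?_ f (Lm φ l m hm) ?_ M ?_ ((l - 1, ⟨m - 1, hm1'⟩)) ⟨h * u * h⁻¹ * u⁻¹, hc0G⟩ ?_ ?_ ?_
    · rintro ⟨a, s⟩ ⟨a', s'⟩
      show Abelianization.of (X' (a + a') * Y' (s + s')) = Abelianization.of (X' a * Y' s) * Abelianization.of (X' a' * Y' s')
      rw [hX'add, hY'add]
      simp only [map_mul]
      exact mul_mul_mul_comm _ _ _ _
    · apply closure_subtype_top
      apply hU₁le
      · intro t
        refine Subgroup.subset_closure ⟨z (t, 0), ⟨_, rfl⟩, ?_⟩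
        show X ax φ t * xG ax 14 0 = X ax φ t
        simp
      · intro s hs
        refine Subgroup.subset_closure ⟨z (0, ⟨s, hs⟩), ⟨_, rfl⟩, ?_⟩
        show X ax φ 0 * xG ax 14 s = xG ax 14 s
        simp [X_zero]
    · rintro ⟨a, s⟩
      congr 1
      apply Subtype.ext
      show h * (X ax φ a * xG ax 14 s) * h⁻¹ = X ax φ (l * a) * xG ax 14 (m * s)
      rw [← hconjX, ← hconjY]
      group
    · intro x hx
      rw [hM, Subgroup.mem_subgroupOf] at hx ⊢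
      exact C.mul_mem (C.mul_mem hhC hx) (C.inv_mem hhC)
    · rw [hM, Subgroup.mem_subgroupOf]
      show h * u * h⁻¹ * u⁻¹ ∈ C
      have e : h * u * h⁻¹ * u⁻¹ = h * b * h * b⁻¹ := by
        have e1 : n * h = h⁻¹ * n := by rw [← hinv]; group
        calc h * u * h⁻¹ * u⁻¹ = h * u * (h⁻¹ * n) * n⁻¹ * u⁻¹ := by group
          _ = h * u * (n * h) * n⁻¹ * u⁻¹ := by rw [e1]
          _ = h * (u * n) * h * (u * n)⁻¹ := by group
      rw [e]
      exact C.mul_mem (C.mul_mem (C.mul_mem hhC hbC) hhC) (C.inv_mem hbC)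
    · have e1 : (⟨h * u * h⁻¹ * u⁻¹, hc0G⟩ : ↥U₁) = (X' (l - 1) * X' 1) * (Y' ⟨m - 1, hm1'⟩ * Y' ⟨1, hY1⟩) * (X' 1 * Y' ⟨1, hY1⟩)⁻¹ := by
        apply Subtype.ext
        show h * u * h⁻¹ * u⁻¹ = (X ax φ (l - 1) * X ax φ 1) * (xG ax 14 (m - 1) * xG ax 14 1) * (X ax φ 1 * xG ax 14 1)⁻¹
        rw [← X_add, xG_add, sub_add_cancel, sub_add_cancel]
        have e2 : h * u * h⁻¹ = X ax φ l * xG ax 14 m := by
          have := hconjX 1
          have h2 := hconjY 1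
          rw [mul_one] at this h2
          rw [← this, ← h2, hu]
          group
        rw [e2]
      rw [e1]
      show _ = Abelianization.of (X' (l - 1) * Y' ⟨m - 1, hm1'⟩)
      simp only [map_mul, map_inv]
      rw [mul_mul_mul_comm, mul_inv_cancel_right]
    · exact hS
  have hUC : ∀ x ∈ U₁, x ∈ C := by
    intro x hx
    have : (⟨x, hx⟩ : ↥U₁) ∈ M := by rw [hM_top]; trivial
    rwa [hM, Subgroup.mem_subgroupOf] at this
  have hnC : n ∈ C := by
    have : n = u⁻¹ * b := by rw [hb]; group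
    rw [this]
    exact C.mul_mem (C.inv_mem (C.mul_mem (hUC _ (hXU 1)) (hUC _ (hYU 1 hY1)))) hbC
  refine ⟨h, hG, b, hbG, ?_⟩
  exact le_of_contains ax φ hφ hφ3 C hnC κ κ' hκ' hc1 hc2 (fun t => hUC _ (hXU t)) (fun s hs => hUC _ (hYU s hs))

end Main

section Num

variable [Fintype K] {q : ℕ} (hφ : ∀ t, φ t = t ^ q) (hφ3 : ∀ t, φ (φ (φ t)) = t)
  (hK : Fintype.card K = q ^ 3) (hq2 : 2 ≤ q) (g : Kˣ) (hg : ∀ x : Kˣ, x ∈ Subgroup.zpowers g)

lemma fac (hq2 : 2 ≤ q) : q ^ 3 - 1 = (q - 1) * (q ^ 2 + q + 1) := by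
  obtain ⟨p, rfl⟩ : ∃ p, q = p + 1 := ⟨q - 1, by omega⟩
  simp only [Nat.add_sub_cancel]
  rw [show (p + 1) ^ 3 = p * ((p + 1) ^ 2 + (p + 1) + 1) + 1 by ring]
  simp

include hK hq2 hg in
lemma order_g : orderOf g = (q - 1) * (q ^ 2 + q + 1) := by
  classical
  rw [orderOf_eq_card_of_forall_mem_zpowers hg, Nat.card_eq_fintype_card, Fintype.card_units, hK, fac hq2]

include hK hq2 hg in
lemma order_ginv : orderOf g⁻¹ = (q - 1) * (q ^ 2 + q + 1) := by
  rw [orderOf_inv, order_g hK hq2 g hg]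

include hφ in
lemma φu_eq (x : Kˣ) : Cfsg.Agent.Lib.Twisted.D4H.φu φ x = x ^ q := by
  apply Units.ext
  rw [Cfsg.Agent.Lib.Twisted.D4H.φu_coe, hφ]
  simp

include hφ in
lemma Nr_eq (x : Kˣ) : Nr φ x = x ^ (q ^ 2 + q + 1) := by
  simp only [Nr]
  rw [φu_eq φ hφ, φu_eq φ hφ, ← pow_mul]
  rw [show q ^ 2 + q + 1 = 1 + q + q * q by ring, pow_add, pow_add, pow_one]

include hφ in
lemma m_eq : (Nr φ g)⁻¹ = (g⁻¹) ^ (q ^ 2 + q + 1) := by
  rw [Nr_eq φ hφ, inv_pow]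

include hK hq2 hg in
lemma l_ne : ((g : K) ^ 2) ^ (q - 1) ≠ 1 := by
  intro e
  have e2 : (g ^ (2 * (q - 1))) = 1 := by
    apply Units.ext
    rw [pow_mul]
    simpa using e
  have h1 := orderOf_dvd_of_pow_eq_one e2
  rw [order_g hK hq2 g hg, mul_comm 2] at h1
  have h2 := Nat.dvd_of_mul_dvd_mul_left (by omega) h1
  have h3 := Nat.le_of_dvd (by norm_num) h2
  nlinarith

include hφ hK hq2 hg in
lemma m_pow : (((Nr φ g)⁻¹ : Kˣ) : K) ^ (q - 1) = 1 := by
  have e : ((Nr φ g)⁻¹) ^ (q - 1) = 1 := by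
    rw [m_eq φ hφ, ← pow_mul, mul_comm, ← order_ginv hK hq2 g hg]
    exact pow_orderOf_eq_one _
  have := congrArg Units.val e
  simpa using this

include hφ hK hq2 hg in
lemma m_fix : φ (((Nr φ g)⁻¹ : Kˣ) : K) = ((Nr φ g)⁻¹ : Kˣ) := by
  rw [hφ]
  have e : q = (q - 1) + 1 := by omega
  conv_lhs => rw [e, pow_succ, m_pow φ hφ hK hq2 g hg, one_mul]

include hφ hK hq2 hg in
lemma m_ne (hq3 : 3 ≤ q) : (((Nr φ g)⁻¹ : Kˣ) : K) ≠ 1 := by
  intro e
  have e1 : (Nr φ g)⁻¹ = 1 := Units.ext e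
  rw [m_eq φ hφ] at e1
  have h1 := orderOf_dvd_of_pow_eq_one e1
  rw [order_ginv hK hq2 g hg] at h1
  have h3 := Nat.le_of_dvd (by positivity) h1
  have : 2 ≤ q - 1 := by omega
  nlinarith

include hg in
lemma sq_pow (r : K) (hr : r ≠ 0) : ∃ i : ℕ, r ^ 2 = ((g : K) ^ 2) ^ i := by
  have h1 : Units.mk0 r hr ∈ Submonoid.powers g := mem_powers_iff_mem_zpowers.mpr (hg _)
  obtain ⟨n, hn⟩ := h1
  refine ⟨n, ?_⟩
  have := congrArg Units.val hn
  simp only [Units.val_pow_eq_pow_val, Units.val_mk0] at this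
  rw [← this]
  ring

include hφ hK hq2 hg in
lemma fix_pow (s : K) (hs : φ s = s) (hs0 : s ≠ 0) : ∃ i : ℕ, s = (((Nr φ g)⁻¹ : Kˣ) : K) ^ i := by
  set υ := Units.mk0 s hs0 with hυ
  have h1 : υ⁻¹ ∈ Submonoid.powers g := mem_powers_iff_mem_zpowers.mpr (hg _)
  obtain ⟨n, hn⟩ := h1
  have hn' : g ^ n = υ⁻¹ := hn
  have h2 : (g⁻¹) ^ n = υ := by
    rw [inv_pow, hn', inv_inv]
  have h3 : υ ^ q = υ := by
    apply Units.ext
    simp only [Units.val_pow_eq_pow_val, hυ, Units.val_mk0]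
    rw [← hφ, hs]
  have h4 : (g⁻¹) ^ (n * (q - 1)) = 1 := by
    rw [pow_mul, h2]
    have h3' : υ ^ (q - 1) * υ = υ := by
      rw [← pow_succ, Nat.sub_add_cancel (by omega)]
      exact h3
    exact mul_eq_right.mp h3'
  have h5 := orderOf_dvd_of_pow_eq_one h4
  rw [order_ginv hK hq2 g hg, mul_comm n] at h5
  obtain ⟨i, hi⟩ := Nat.dvd_of_mul_dvd_mul_left (by omega) h5
  refine ⟨i, ?_⟩
  have h6 : υ = ((Nr φ g)⁻¹) ^ i := by
    rw [m_eq φ hφ, ← pow_mul, ← hi, h2]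
  have := congrArg Units.val h6
  simpa [hυ] using this

end Num

section Two

variable [Fintype K] (hφ : ∀ t, φ t = t ^ 2) (hφ3 : ∀ t, φ (φ (φ t)) = t)
  (hK : Fintype.card K = 2 ^ 3) (g : Kˣ) (hg : ∀ x : Kˣ, x ∈ Subgroup.zpowers g)

include hK in
lemma two_eq : (1 + 1 : K) = 0 := by
  have h8 : ((Fintype.card K : ℕ) : K) = 0 := Nat.cast_card_eq_zero K
  rw [hK] at h8
  have : ((2 : K)) ^ 3 = 0 := by
    have e : ((2 ^ 3 : ℕ) : K) = 2 ^ 3 := by norm_num
    rwa [e] at h8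
  have h2 : (2 : K) = 0 := by simpa using this
  rw [← h2]
  norm_num

include hK in
lemma h_pow7 (c : ℕ → Kˣ) : (tor chevD4 (psi chevD4 c)) ^ 7 = (1 : GL chevD4.Idx K) := by
  classical
  have h7 : ∀ x : Kˣ, x ^ 7 = 1 := by
    intro x
    have := pow_card_eq_one' (x := x)
    rwa [Nat.card_eq_fintype_card, Fintype.card_units, hK] at this
  have e : tor chevD4 (psi chevD4 c) = ((torHom chevD4).comp (psiHom chevD4)) c := rfl
  rw [e, ← map_pow]
  have e2 : c ^ 7 = 1 := by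
    funext i
    simp [h7]
  rw [e2, map_one]

include ax φ hφ hφ3 hK hg in
/-- The case `q = 2`. -/
theorem case_two : ∃ a ∈ twistedD4 K 2, ∃ b ∈ twistedD4 K 2, twistedD4 K 2 ≤ Subgroup.closure {a, b} := by
  classical
  have hK' : Fintype.card K = 2 ^ 3 := hK
  have hg2 : 2 ≤ 2 := le_rfl
  set l : K := (g : K) ^ 2 with hl
  have hl1 : l ≠ 1 := by
    have := l_ne hK hg2 g hg
    rwa [show 2 - 1 = 1 from rfl, pow_one] at this
  set v : K := l - 1 with hv
  have hv0 : v ≠ 0 := sub_ne_zero.mpr hl1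
  set T := TD4 (q := 2) φ hφ hφ3 ax with hT
  obtain ⟨c, H⟩ := T.n₀_nor
  have H' : IsNor hD ax T.n₀ (wPw hD (Cd.flat Cd.L₀)) c := H
  have hnF := T.G1_le T.n₀_mem
  obtain ⟨κ, κ', hκ', hc1, hc2⟩ := n0_conj ax φ hnF H'
  set n := T.n₀ with hn
  set h := hh φ g with hh'
  have hinv : n * h * n⁻¹ = h⁻¹ := inverts ax H' _ (hh_mem_diag ax φ g)
  have hG : h ∈ twistedD4 K 2 := by
    apply Cfsg.Agent.Lib.Twisted.D4H.mem_G1 ax φ hφ hφ3
    · rfl
    · rfl
    · show Cfsg.Agent.Lib.Twisted.D4H.φu φ 1 = 1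
      exact map_one _
  have hY1 : φ (1 : K) = 1 := map_one φ
  set y := xG ax 14 (1 : K) with hy
  have hy2 : y ^ 2 = 1 := by
    rw [pow_two, hy, xG_add, two_eq hK, xG_zero]
  have hyG : y ∈ twistedD4 K 2 := Y_mem ax φ hφ hφ3 hY1
  have hNr : (((Nr φ g)⁻¹ : Kˣ) : K) = 1 := by
    have e := m_pow φ hφ hK hg2 g hg
    rwa [show 2 - 1 = 1 from rfl, pow_one] at e
  have hcomm : Commute h y := by
    have := hh_conj_Y ax φ g 1
    rw [hNr, mul_one] at this
    show h * y = y * h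
    calc h * y = (h * y * h⁻¹) * h := by group
      _ = y * h := by rw [this]
  have hp7 : h ^ 7 = 1 := h_pow7 hK _
  set a := h * y with ha
  have ha7 : a ^ 7 = y := by
    rw [ha, hcomm.mul_pow, hp7, one_mul]
    calc y ^ 7 = (y ^ 2) ^ 3 * y := by group
      _ = y := by rw [hy2]; simp
  have ha8 : a ^ 8 = h := by
    rw [ha, hcomm.mul_pow]
    have e1 : h ^ 8 = h := by
      calc h ^ 8 = h ^ 7 * h := by group
        _ = h := by rw [hp7, one_mul]
    have e2 : y ^ 8 = 1 := by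
      calc y ^ 8 = (y ^ 2) ^ 4 := by group
        _ = 1 := by rw [hy2]; simp
    rw [e1, e2, mul_one]
  have haG : a ∈ twistedD4 K 2 := Subgroup.mul_mem _ hG hyG
  set u := X ax φ 1 with hu
  set b := u * n with hb
  have huG : u ∈ twistedD4 K 2 := X_mem ax φ hφ hφ3 1
  have hbG : b ∈ twistedD4 K 2 := Subgroup.mul_mem _ huG T.n₀_mem
  set C := Subgroup.closure ({a, b} : Set (GL chevD4.Idx K)) with hC
  have haC : a ∈ C := Subgroup.subset_closure (by simp)
  have hbC : b ∈ C := Subgroup.subset_closure (by simp)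
  have hhC : h ∈ C := by rw [← ha8]; exact C.pow_mem haC 8
  have hyC : y ∈ C := by rw [← ha7]; exact C.pow_mem haC 7
  have hconjX : ∀ t, h * X ax φ t * h⁻¹ = X ax φ (l * t) := hh_conj_X ax φ g
  have h0 : X ax φ v ∈ C := by
    have e : X ax φ v = h * b * h * b⁻¹ := by
      have e1 : n * h = h⁻¹ * n := by rw [← hinv]; group
      have e2 : X ax φ l = X ax φ v * u := by
        rw [hu, ← X_add, hv, sub_add_cancel]
      have e3 : h * u * h⁻¹ = X ax φ l := by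
        have := hconjX 1
        rwa [mul_one] at this
      calc X ax φ v = (X ax φ v * u) * u⁻¹ := by group
        _ = (h * u * h⁻¹) * u⁻¹ := by rw [← e2, e3]
        _ = h * u * (h⁻¹ * n) * n⁻¹ * u⁻¹ := by group
        _ = h * u * (n * h) * n⁻¹ * u⁻¹ := by rw [e1]
        _ = h * (u * n) * h * (u * n)⁻¹ := by group
    rw [e]
    exact C.mul_mem (C.mul_mem (C.mul_mem hhC hbC) hhC) (C.inv_mem hbC)
  have h1 : ∀ i : ℕ, X ax φ (l ^ i * v) ∈ C := by
    intro i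
    induction i with
    | zero => simpa using h0
    | succ i ih =>
      have e := hconjX (l ^ i * v)
      have e2 : l ^ (i + 1) * v = l * (l ^ i * v) := by ring
      rw [e2, ← e]
      exact C.mul_mem (C.mul_mem hhC ih) (C.inv_mem hhC)
  have h2 : ∀ r : K, X ax φ (r ^ 2 * v) ∈ C := by
    intro r
    by_cases hr : r = 0
    · subst hr
      simp [X_zero, C.one_mem]
    · obtain ⟨i, hi⟩ := sq_pow g hg r hr
      rw [hi]
      exact h1 i
  have hXC : ∀ x, X ax φ x ∈ C := by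
    intro x
    obtain ⟨r, s, hrs⟩ := exists_sq_add_sq (x / v)
    have e : x = r ^ 2 * v + s ^ 2 * v := by
      rw [← add_mul, hrs]
      field_simp
    rw [e, X_add]
    exact C.mul_mem (h2 r) (h2 s)
  have hnC : n ∈ C := by
    have : n = u⁻¹ * b := by rw [hb]; group
    rw [this]
    exact C.mul_mem (C.inv_mem (hXC 1)) hbC
  have hYC : ∀ s, φ s = s → xG ax 14 s ∈ C := by
    intro s hs
    rw [hφ] at hs
    have h3 : s * (s - 1) = 0 := by linear_combination hs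
    rcases mul_eq_zero.mp h3 with h4 | h4
    · rw [h4, xG_zero]
      exact C.one_mem
    · have h5 : s = 1 := sub_eq_zero.mp h4
      rw [h5]
      exact hyC
  exact ⟨a, haG, b, hbG, le_of_contains ax φ hφ hφ3 C hnC κ κ' hκ' hc1 hc2 hXC hYC⟩

end Two

/-- ³D₄(q) is generated by two elements. -/
theorem two_gen [Fintype K] {q : ℕ} (hq : IsPrimePow q) (hK : Fintype.card K = q ^ 3) :
    ∃ a b : ↥(twistedD4 K q), Subgroup.closure ({a, b} : Set ↥(twistedD4 K q)) = ⊤ := by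
  classical
  obtain ⟨φ, hφ, hφ3⟩ := Cfsg.Agent.Lib.Twisted.D4H.exists_φ hq hK
  have ax : Ax chevD4 K := Cfsg.Agent.Lib.Lie.AxOf.ax_of_mem Cfsg.Agent.Lib.Twisted.D4H.hD4mem
  obtain ⟨g, hg⟩ := IsCyclic.exists_generator (α := Kˣ)
  have hq2 : 2 ≤ q := hq.two_le
  have key : ∃ a ∈ twistedD4 K q, ∃ b ∈ twistedD4 K q, twistedD4 K q ≤ Subgroup.closure {a, b} := by
    by_cases h2 : q = 2
    · subst h2
      exact case_two ax φ hφ hφ3 hK g hg
    · have hq3 : 3 ≤ q := by omega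
      have hm := m_fix φ hφ hK hq2 g hg
      refine case_ge3 ax φ hφ hφ3 g hm ?_
      intro S h0 hL
      exact add_gen φ hm (m_ne φ hφ hK hq2 g hg hq3) (m_pow φ hφ hK hq2 g hg) (l_ne hK hq2 g hg)
        (sq_pow g hg) (fix_pow φ hφ hK hq2 g hg) S h0 hL
  obtain ⟨a, ha, b, hb, hle⟩ := key
  refine ⟨⟨a, ha⟩, ⟨b, hb⟩, closure_subtype_top _ _ ?_⟩
  have e : (twistedD4 K q).subtype '' ({⟨a, ha⟩, ⟨b, hb⟩} : Set ↥(twistedD4 K q)) = {a, b} := by
    rw [Set.image_pair]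
    rfl
  rw [e]
  exact hle

end Cfsg.Agent.Lib.TwoGenTw.D4
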